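import Cfsg.Agent.H113.QS.LiftZ

/-!
# The sieve in a central extension with a cyclic kernel (helper113, tool C4 for S2491, S2492)

* `cord π χ` : the index in `π.ker` of the elements of `π.ker` in the kernel of `χ` (the order of the central character);
* `SZ.prd_cyc` : the sieve with a bound `d n` for the degrees of the characters with `cord π χ = n`.
-/

set_option autoImplicit false
set_option linter.unusedSectionVars false

namespace Cfsg.Agent.H113.QS

open Cfsg Cfsg.Agent.Characters Subgroup Cfsg.Agent.H65.Ore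
open Cfsg.Agent.SmallSimple.ThetaSetup
open scoped ComplexConjugate

universe u v

variable {L : Type u} [Group L] [Finite L] {K : Type v} [Group K] [Finite K] {π : L →* K}

/-- the order of the central character -/
noncomputable def cord (π : L →* K) (χ : IrrCharacter L) : ℕ := (H686.CharKit.chKer χ).relIndex π.ker

omit [Finite K] in
theorem cord_eq (hc : π.ker ≤ center L) {θ : IrrCharacter π.ker} {χ : IrrCharacter L}
    (h : Lies π.ker (θ : π.ker → ℂ) (χ : L → ℂ)) {f : π.ker →* ℂˣ} (hf : (θ : π.ker → ℂ) = fun z => (f z : ℂ)) :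
    cord π χ = f.ker.index := by
  rw [cord, relIndex]
  congr 1
  ext z
  rw [mem_subgroupOf, H686.CharKit.mem_chKer, MonoidHom.mem_ker]
  have h1 := h 1 z
  rw [_root_.one_mul, hf] at h1
  constructor
  · intro h2
    rw [h1] at h2
    have h3 : (f z : ℂ) = 1 := by
      have h4 : (χ : L → ℂ) 1 * (f z : ℂ) = (χ : L → ℂ) 1 * 1 := by rw [mul_one]; exact h2
      exact mul_left_cancel₀ (irr_one_ne χ) h4
    exact Units.ext h3
  · intro h2
    have h3 : (χ : L → ℂ) z = (χ : L → ℂ) 1 * (f z : ℂ) := h1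
    rw [h3, h2]
    simp

omit [Finite L] [Finite K] in
theorem index_ker_cyc {z : π.ker} (hz : ∀ y, y ∈ zpowers z) (f : π.ker →* ℂˣ) : f.ker.index = orderOf (f z) := by
  rw [Subgroup.index_ker, ← Nat.card_zpowers]
  congr 2
  ext u
  constructor
  · rintro ⟨y, rfl⟩
    obtain ⟨i, rfl⟩ := mem_zpowers_iff.1 (hz y)
    exact mem_zpowers_iff.2 ⟨i, by rw [map_zpow]⟩
  · intro hu
    obtain ⟨i, rfl⟩ := mem_zpowers_iff.1 hu
    exact ⟨z ^ i, by rw [map_zpow]⟩

/-- **The sieve in `L`, cyclic kernel.** -/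
theorem SZ.prd_cyc {p S : ℕ} (h : SZ L π.ker p S) (hs : Function.Surjective π) (hc : π.ker ≤ center L)
    (hcyc : IsCyclic π.ker) {x y g : L} (hx : orderOf x = p) (hy : orderOf y = p) {m d₁ c : ℕ} (d : ℕ → ℕ) (A B : ℕ)
    (hm : Nat.card π.ker = m)
    (hd₁ : ∀ ψ : IrrCharacter K, (ψ : K → ℂ) ≠ 1 → ¬ p ∣ charDegree (ψ : K → ℂ) → d₁ ≤ charDegree (ψ : K → ℂ))
    (hd0 : 0 < d₁) (hd0' : ∀ n ∈ m.divisors.erase 1, 0 < d n)
    (hd : ∀ n ∈ m.divisors.erase 1, ∀ χ : IrrCharacter L, cord π χ = n → ¬ p ∣ charDegree (χ : L → ℂ) →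
      d n ≤ charDegree (χ : L → ℂ))
    (hcard : Nat.card (centralizer ({π g} : Set K)) ≤ c)
    (hnum : (S - 1) * (c - 1) ≤ A ^ 2 ∧ S * c ≤ B ^ 2 ∧ 1 ≤ S)
    (hsum : (A : ℚ) / d₁ + ∑ n ∈ m.divisors.erase 1, (n.totient : ℚ) * B / d n < 1) : Prd x y g := by
  classical
  obtain ⟨hA, hB, hS1⟩ := hnum
  have hc1 : 1 ≤ c := le_trans (Nat.card_pos (α := centralizer ({π g} : Set K))) hcard
  have hm0 : m ≠ 0 := by rw [← hm]; exact Nat.card_pos.ne'
  have hfin : Finite (IrrCharacter π.ker) := Core.finite_irr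
  have := Fintype.ofFinite (IrrCharacter π.ker)
  obtain ⟨z, hz⟩ := hcyc.exists_generator
  have hz' : ∀ y, y ∈ zpowers z := fun y => hz y
  -- the homomorphism of a central character
  have hhom : ∀ θ : IrrCharacter π.ker, ∃ f : π.ker →* ℂˣ, (θ : π.ker → ℂ) = fun z => (f z : ℂ) :=
    fun θ => Linear.exists_hom_of_isIrrCharacter θ.2 (theta_one hc θ)
  choose f hf using hhom
  have hinj : ∀ θ θ', f θ z = f θ' z → θ = θ' := by
    intro θ θ' h1
    have h2 : f θ = f θ' := by
      ext y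
      obtain ⟨i, rfl⟩ := mem_zpowers_iff.1 (hz' y)
      rw [map_zpow, map_zpow, h1]
    apply Subtype.ext
    rw [hf, hf, h2]
  let N : IrrCharacter π.ker → ℕ := fun θ => orderOf (f θ z)
  have hN1 : ∀ θ, N θ = 1 ↔ θ = one1 π.ker := by
    intro θ
    rw [orderOf_eq_one_iff]
    have h1 : f (one1 π.ker) z = 1 := by
      have h2 := congrFun (hf (one1 π.ker)) z
      rw [one1_apply] at h2
      exact Units.ext h2.symm
    constructor
    · intro h2
      exact hinj _ _ (h2.trans h1.symm)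
    · rintro rfl
      exact h1
  have hNd : ∀ θ, N θ ∈ m.divisors := by
    intro θ
    rw [Nat.mem_divisors]
    refine ⟨orderOf_dvd_of_pow_eq_one ?_, hm0⟩
    rw [← map_pow, ← hm, pow_card_eq_one', map_one]
  have hcord : ∀ (θ : IrrCharacter π.ker) (χ : IrrCharacter L), Lies π.ker (θ : π.ker → ℂ) (χ : L → ℂ) →
      cord π χ = N θ := by
    intro θ χ h1
    rw [cord_eq hc h1 (hf θ), index_ker_cyc hz']
  refine h.prd hs hc hx hy (fun θ => if θ = one1 π.ker then (d₁ : ℝ) else d (N θ)) ?_ ?_ hcard (A := (A : ℝ))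
    (B := (B : ℝ)) (by positivity) ?_ (by positivity) ?_ ?_
  · intro θ
    split_ifs with h4
    · exact_mod_cast hd0
    · exact_mod_cast hd0' (N θ) (Finset.mem_erase.2 ⟨fun h5 => h4 ((hN1 θ).1 h5), hNd θ⟩)
  · intro θ χ h1 h2 h3
    split_ifs with h4
    · rw [h4] at h1
      exact_mod_cast deg_base_le hs hd₁ χ h1 h2 h3
    · exact_mod_cast hd (N θ) (Finset.mem_erase.2 ⟨fun h5 => h4 ((hN1 θ).1 h5), hNd θ⟩) χ (hcord θ χ h1) h3
  · have h1 : (((S - 1) * (c - 1) : ℕ) : ℝ) ≤ ((A ^ 2 : ℕ) : ℝ) := by exact_mod_cast hA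
    rw [Nat.cast_mul, Nat.cast_sub hS1, Nat.cast_sub hc1] at h1
    push_cast at h1
    exact h1
  · exact_mod_cast hB
  · rw [if_pos rfl, Finset.sum_congr rfl (g := fun θ => (B : ℝ) / d (N θ))
      fun θ hθ => by rw [if_neg (Finset.ne_of_mem_erase hθ)]]
    have h1 : ∑ θ ∈ Finset.univ.erase (one1 π.ker), (B : ℝ) / d (N θ) ≤
        ∑ n ∈ m.divisors.erase 1, (n.totient : ℝ) * B / d n := by
      rw [← Finset.sum_fiberwise_of_maps_to (g := N) (t := m.divisors.erase 1) (fun θ hθ => Finset.mem_erase.2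
        ⟨fun h5 => Finset.ne_of_mem_erase hθ ((hN1 θ).1 h5), hNd θ⟩)]
      refine Finset.sum_le_sum fun n hn => ?_
      have h2 : ∀ θ ∈ (Finset.univ.erase (one1 π.ker)).filter (fun θ => N θ = n), (B : ℝ) / d (N θ) = (B : ℝ) / d n := by
        intro θ hθ
        rw [(Finset.mem_filter.1 hθ).2]
      rw [Finset.sum_congr rfl h2, Finset.sum_const, nsmul_eq_mul, mul_div_assoc]
      have h3 : ((Finset.univ.erase (one1 π.ker)).filter (fun θ => N θ = n)).card ≤ n.totient := by
        have hn0 : 0 < n := Nat.pos_of_mem_divisors (Finset.mem_of_mem_erase hn)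
        rw [← Complex.card_primitiveRoots n]
        apply Finset.card_le_card_of_injOn (fun θ => ((f θ z : ℂˣ) : ℂ))
        · intro θ hθ
          have h4 : N θ = n := (Finset.mem_filter.1 hθ).2
          rw [Finset.mem_coe, mem_primitiveRoots hn0, ← h4]
          exact IsPrimitiveRoot.coe_units_iff.2 (IsPrimitiveRoot.orderOf _)
        · intro θ _ θ' _ h4
          exact hinj θ θ' (Units.ext h4)
      have h4 : ((((Finset.univ.erase (one1 π.ker)).filter (fun θ => N θ = n)).card : ℕ) : ℝ) ≤ n.totient := by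
        exact_mod_cast h3
      gcongr
    refine lt_of_le_of_lt (add_le_add_right h1 _) ?_
    have h2 : (((A : ℚ) / d₁ + ∑ n ∈ m.divisors.erase 1, (n.totient : ℚ) * B / d n : ℚ) : ℝ) < ((1 : ℚ) : ℝ) := by
      exact_mod_cast hsum
    push_cast at h2
    exact h2

end Cfsg.Agent.H113.QS
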